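import Cfsg.Agent.Lib.HH.Lem

/-!
# Hall–Higman: a homogeneous block
-/

set_option autoImplicit false

namespace Cfsg.Lib.HH
open Module

variable {F : Type*} [Field F] {Q : Type*} [Group Q] [Fintype Q]
  {V : Type*} [AddCommGroup V] [Module F V]

/-- The sum of the conjugates of `g`. -/
def cs (ρ : Q →* End F V) (g : Q) : End F V := ∑ h, ρ (h * g * h⁻¹)

theorem cs_comm (ρ : Q →* End F V) (g k : Q) : ρ k * cs ρ g = cs ρ g * ρ k := by
  simp only [cs, Finset.mul_sum, Finset.sum_mul, ← map_mul]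
  exact Fintype.sum_equiv (Equiv.mulLeft k) _ _ fun h => by simp [mul_assoc]

theorem cs_twist {ρ : Q →* End F V} {X : End F V} {σ : MulAut Q}
    (hXσ : ∀ g, X * ρ g = ρ (σ g) * X) (g : Q) : X * cs ρ g = cs ρ (σ g) * X := by
  simp only [cs, Finset.mul_sum, Finset.sum_mul, hXσ]
  exact Fintype.sum_equiv σ.toEquiv _ _ fun h => by simp

/-- The common eigenspace of the class sums. -/
def blk (ρ : Q →* End F V) (χ : Q → F) : Submodule F V := ⨅ g, (cs ρ g).eigenspace (χ g)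

theorem mem_blk {ρ : Q →* End F V} {χ : Q → F} {v : V} :
    v ∈ blk ρ χ ↔ ∀ g, cs ρ g v = χ g • v := by
  simp [blk, End.mem_eigenspace_iff]

theorem rho_mem_blk (ρ : Q →* End F V) (χ : Q → F) (k : Q) (w : V) (hw : w ∈ blk ρ χ) :
    ρ k w ∈ blk ρ χ := by
  rw [mem_blk] at hw ⊢
  intro g
  rw [← End.mul_apply, ← cs_comm, End.mul_apply, hw, map_smul]

theorem twist_mem_blk {ρ : Q →* End F V} {X : End F V} {σ : MulAut Q}
    (hXσ : ∀ g, X * ρ g = ρ (σ g) * X) {χ : Q → F} {w : V} (hw : w ∈ blk ρ χ) :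
    X w ∈ blk ρ (fun g => χ (σ⁻¹ g)) := by
  rw [mem_blk] at hw ⊢
  intro g
  obtain ⟨g, rfl⟩ := σ.surjective g
  rw [← End.mul_apply, ← cs_twist hXσ, End.mul_apply, hw, map_smul, MulAut.inv_apply_self]

/-- The elements acting as scalars on an invariant subspace. -/
def scal (ρ : Q →* End F V) (W : Submodule F V) (hW : ∀ g, ∀ w ∈ W, ρ g w ∈ W) : Subgroup Q where
  carrier := {g | ∃ c : F, ∀ w ∈ W, ρ g w = c • w}
  one_mem' := ⟨1, by simp⟩
  mul_mem' := by
    rintro a b ⟨c, hc⟩ ⟨d, hd⟩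
    exact ⟨d * c, fun w hw => by rw [map_mul, End.mul_apply, hd w hw, map_smul, hc w hw, smul_smul]⟩
  inv_mem' := by
    rintro a ⟨c, hc⟩
    refine ⟨c⁻¹, fun w hw => ?_⟩
    have h1 := hc _ (hW a⁻¹ w hw)
    rw [← End.mul_apply, ← map_mul, mul_inv_cancel, map_one, End.one_apply] at h1
    by_cases h0 : c = 0
    · rw [h0, zero_smul] at h1
      simp [h1]
    · conv_rhs => rw [h1, smul_smul, inv_mul_cancel₀ h0, one_smul]

theorem block [IsAlgClosed F] [FiniteDimensional F V] {p q : ℕ} (hp : p.Prime) [Fact q.Prime]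
    (hQ : IsPGroup q Q) (hQF : (Fintype.card Q : F) ≠ 0)
    (hcl : ∀ a b c : Q, c * (a⁻¹ * b⁻¹ * a * b) = (a⁻¹ * b⁻¹ * a * b) * c)
    (ρ : Q →* End F V) (χ : Q → F) (hnt : ∃ g, ∃ w ∈ blk ρ χ, ρ g w ≠ w)
    (X : End F V) (σ : MulAut Q) (hXσ : ∀ g, X * ρ g = ρ (σ g) * X) (hχ : ∀ g, χ (σ g) = χ g)
    (e : ℕ) (hX : X ^ p ^ (e + 1) = 1) (hσ : σ ^ p ^ (e + 1) = 1)
    (hgen : ∀ S : Subgroup Q, (∀ g, g⁻¹ * (σ ^ p ^ e) g ∈ S) → S = ⊤)
    (s : ℕ) (hs : ∀ w ∈ blk ρ χ, ((X - 1) ^ s) w = 0) (hsh : s < p ^ (e + 1)) :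
    (¬ ∀ a b : Q, a * b = b * a) ∧ (∃ m, 1 ≤ m ∧ p ^ (e + 1) - 1 = q ^ m) ∧
      p ^ (e + 1) - 1 ≤ s := by
  classical
  set W := blk ρ χ with hWdef
  have hWρ : ∀ g, ∀ w ∈ W, ρ g w ∈ W := rho_mem_blk ρ χ
  have hWX : ∀ w ∈ W, X w ∈ W := fun w hw => by
    have := twist_mem_blk hXσ hw
    rwa [show (fun g => χ (σ⁻¹ g)) = χ from funext fun g => by
      rw [← hχ, MulAut.apply_inv_self]] at this
  have hWXj : ∀ (j : ℕ), ∀ w ∈ W, (X ^ j) w ∈ W := fun j w hw => by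
    induction j with
    | zero => simpa using hw
    | succ j ih => rw [pow_succ', End.mul_apply]; exact hWX _ ih
  have hh : 1 < p ^ (e + 1) := Nat.one_lt_pow (by omega) hp.one_lt
  set Y := X ^ (p ^ (e + 1) - 1)
  have hXY : X * Y = 1 := by rw [← pow_succ', Nat.sub_add_cancel hh.le, hX]
  set R := scal ρ W hWρ
  have hmem : ∀ g, g ∈ R ↔ ∃ c : F, ∀ w ∈ W, ρ g w = c • w := fun g => Iff.rfl
  have hcen : ∀ z : Q, (∀ c, c * z = z * c) → z ∈ R := by
    intro z hz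
    refine ⟨(Fintype.card Q : F)⁻¹ * χ z, fun w hw => ?_⟩
    have h1 := mem_blk.mp hw z
    simp only [cs, hz, mul_inv_cancel_right, Finset.sum_const, Finset.card_univ,
      LinearMap.smul_apply] at h1
    rw [mul_smul, ← h1, ← Nat.cast_smul_eq_nsmul F, smul_smul, inv_mul_cancel₀ hQF, one_smul]
  have hcR : ∀ a b : Q, a⁻¹ * b⁻¹ * a * b ∈ R := fun a b => hcen _ (hcl a b)
  have hRn : R.Normal := ⟨fun g hg k => by
    have := R.mul_mem hg (hcR g k⁻¹)
    simpa [mul_assoc] using this⟩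
  have hR' : ∀ g ∉ R, ∀ w ∈ W, cs ρ g w = 0 := by
    intro g hg
    choose γ hγ using fun k : Q => (hmem _).mp (hcR g k⁻¹)
    have h1 : ∀ w ∈ W, cs ρ g w = (∑ k, γ k) • ρ g w := by
      intro w hw
      rw [cs, LinearMap.sum_apply, Finset.sum_smul]
      refine Finset.sum_congr rfl fun k _ => ?_
      rw [← map_smul, ← hγ k w hw, ← End.mul_apply, ← map_mul]
      simp [mul_assoc]
    intro w hw
    by_cases h0 : ∑ k, γ k = 0
    · rw [h1 w hw, h0, zero_smul]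
    · refine absurd ⟨(∑ k, γ k)⁻¹ * χ g, fun v hv => ?_⟩ hg
      rw [mul_smul, ← mem_blk.mp hv g, h1 v hv, smul_smul, inv_mul_cancel₀ h0, one_smul]
  have hσs : ∀ g (c : F), (∀ w ∈ W, ρ g w = c • w) → ∀ w ∈ W, ρ (σ g) w = c • w := by
    intro g c hc w hw
    have h1 : w = X (Y w) := by rw [← End.mul_apply, hXY, End.one_apply]
    rw [h1, ← End.mul_apply, ← hXσ, End.mul_apply, hc _ (hWXj _ w hw), map_smul]
  have hσj : ∀ (j : ℕ) g (c : F), (∀ w ∈ W, ρ g w = c • w) →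
      ∀ w ∈ W, ρ ((σ ^ j) g) w = c • w := by
    intro j g c hc
    induction j with
    | zero => simpa using hc
    | succ j ih => rw [pow_succ', MulAut.mul_apply]; exact hσs _ c ih
  have hσR : ∀ (j : ℕ), ∀ g ∈ R, (σ ^ j) g ∈ R := fun j g ⟨c, hc⟩ => ⟨c, hσj j g c hc⟩
  have hne : R ≠ ⊤ := by
    intro hR
    obtain ⟨g, w, hw, hgw⟩ := hnt
    let S : Subgroup Q := (subRep ρ W hWρ).ker
    have hS : S = ⊤ := hgen S fun g => by
      obtain ⟨c, hc⟩ := (hmem g).mp (hR ▸ Subgroup.mem_top g)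
      rw [MonoidHom.mem_ker]
      ext v
      rw [subRep_apply, map_mul, End.mul_apply, hσj _ g c hc v v.2, ← hc v v.2, ← End.mul_apply,
        ← map_mul, inv_mul_cancel, map_one]
      rfl
    have : subRep ρ W hWρ g = 1 := (hS ▸ Subgroup.mem_top g : g ∈ S)
    exact hgw (congrArg Subtype.val (LinearMap.congr_fun this ⟨w, hw⟩))
  have hf : ∀ j, 0 < j → j < p ^ (e + 1) → ∀ g, g⁻¹ * (σ ^ j) g ∈ R → g ∈ R := by
    intro j h0 hj g hg
    obtain ⟨t, ht⟩ := exists_pow_eq_pow_pred hp hσ h0 hj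
    apply mem_of_fpf R hcR (σ ^ p ^ e) (hσR _) hgen
    rw [← ht]
    clear ht
    induction t with
    | zero => simp
    | succ t ih =>
      have := R.mul_mem hg (hσR j _ ih)
      rw [pow_succ', MulAut.mul_apply]
      simpa [mul_assoc] using this
  let b : End F V := ∑ g, ρ g * Y * ρ g⁻¹
  have hb : ∀ k, ρ k * b = b * ρ k := fun k => by
    simp only [b, Finset.mul_sum, Finset.sum_mul]
    exact Fintype.sum_equiv (Equiv.mulLeft k) _ _ fun h => by
      simp only [Equiv.coe_mulLeft, mul_assoc, ← map_mul ρ, mul_inv_rev, inv_mul_cancel, mul_one]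
      rw [map_mul, mul_assoc]
  have hbW : ∀ w ∈ W, b w ∈ W := fun w hw => by
    rw [LinearMap.sum_apply]
    exact W.sum_mem fun g _ => hWρ _ _ (hWXj _ _ (hWρ _ _ hw))
  have hXb : X * b = ∑ g, ρ (σ g * g⁻¹) := by
    simp only [b, Finset.mul_sum, ← mul_assoc, hXσ, map_mul]
    exact Finset.sum_congr rfl fun g _ => by rw [mul_assoc (ρ (σ g)), hXY, mul_one]
  have hW0 : W ≠ ⊥ := by
    obtain ⟨g, w, hw, hgw⟩ := hnt
    intro h0
    rw [h0, Submodule.mem_bot] at hw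
    exact hgw (by simp [hw])
  have := Submodule.nontrivial_iff_ne_bot.mpr hW0
  obtain ⟨μ, hμ⟩ := End.exists_eigenvalue (b.restrict hbW : End F W)
  obtain ⟨v, hv⟩ := hμ.exists_hasEigenvector
  obtain ⟨U, hU, hUE, hU0, hirr⟩ := exists_irr ρ (W ⊓ b.eigenspace μ) (fun g w hw =>
    ⟨hWρ g w hw.1, by
      have h1 := End.mem_eigenspace_iff.mp hw.2
      rw [SetLike.mem_coe, End.mem_eigenspace_iff, ← End.mul_apply, ← hb, End.mul_apply, h1,
        map_smul]⟩) (by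
    rw [Submodule.ne_bot_iff]
    exact ⟨v, ⟨v.2, End.mem_eigenspace_iff.mpr (congrArg Subtype.val hv.apply_eq_smul)⟩,
      fun h => hv.2 (Subtype.ext h)⟩)
  have hUW : U ≤ W := hUE.trans inf_le_left
  have hUb : ∀ u ∈ U, (∑ g, ρ (σ g * g⁻¹)) u = μ • X u := fun u hu => by
    rw [← hXb, End.mul_apply, End.mem_eigenspace_iff.mp (hUE hu).2, map_smul]
  have hμ0 : μ ≠ 0 := by
    rintro rfl
    obtain ⟨u, hu, hu0⟩ := (Submodule.ne_bot_iff U).mp hU0
    have h1 : ∑ k, ρ k ((∑ g, ρ (σ g * g⁻¹)) (ρ k⁻¹ u)) = 0 :=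
      Finset.sum_eq_zero fun k _ => by rw [hUb _ (hU _ _ hu), zero_smul, map_zero]
    have h2 : ∑ k, ρ k ((∑ g, ρ (σ g * g⁻¹)) (ρ k⁻¹ u)) = ∑ g, cs ρ (σ g * g⁻¹) u := by
      simp only [cs, LinearMap.sum_apply, map_sum, map_mul, End.mul_apply]
      exact Finset.sum_comm
    have h3 : ∀ g, cs ρ (σ g * g⁻¹) u = if g ∈ R then (Fintype.card Q : F) • u else 0 := by
      intro g
      split_ifs with hg
      · obtain ⟨c, hc⟩ := hg
        rw [cs, LinearMap.sum_apply, Finset.sum_congr rfl (g := fun _ => u), Finset.sum_const,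
          Finset.card_univ, Nat.cast_smul_eq_nsmul]
        intro k _
        have h4 := hWρ g⁻¹ _ (hWρ k⁻¹ _ (hUW hu))
        simp only [map_mul, End.mul_apply]
        rw [hσs g c hc _ h4, ← hc _ h4]
        simp only [← End.mul_apply, ← map_mul]
        simp
      · refine hR' _ (fun hm => hg (hf 1 one_pos hh g ?_)) u (hUW hu)
        have := hRn.conj_mem _ hm g⁻¹
        simpa [mul_assoc] using this
    rw [h2, Finset.sum_congr rfl fun g _ => h3 g, ← Finset.sum_filter, Finset.sum_const,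
      ← Nat.cast_smul_eq_nsmul F, smul_smul, smul_eq_zero] at h1
    have h4 : ((Finset.univ.filter fun g => g ∈ R).card : F) ≠ 0 := by
      intro h0
      apply hQF
      rw [← Fintype.card_subtype, ← Nat.card_eq_fintype_card] at h0
      rw [← Nat.card_eq_fintype_card, ← R.card_mul_index, Nat.cast_mul]
      exact mul_eq_zero_of_left h0 _
    exact h1.elim (mul_ne_zero h4 hQF) hu0
  have hUX : ∀ u ∈ U, X u ∈ U := fun u hu => by
    rw [← U.smul_mem_iff hμ0, ← hUb u hu, LinearMap.sum_apply]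
    exact U.sum_mem fun g _ => hU _ _ hu
  have := Submodule.nontrivial_iff_ne_bot.mpr hU0
  let XU : End F U := X.restrict hUX
  have hXU : ∀ (j : ℕ) (u : U), ((XU ^ j) u : V) = (X ^ j) u := fun j u => by
    induction j with
    | zero => rfl
    | succ j ih => rw [pow_succ', pow_succ', End.mul_apply, End.mul_apply, ← ih]; rfl
  have hXU1 : ∀ (j : ℕ) (u : U), (((XU - 1) ^ j) u : V) = ((X - 1) ^ j) u := fun j u => by
    induction j with
    | zero => rfl
    | succ j ih => rw [pow_succ', pow_succ', End.mul_apply, End.mul_apply, ← ih]; rfl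
  obtain ⟨h1, h2⟩ := core hirr hQF R
    (fun g ⟨c, hc⟩ => ⟨c, LinearMap.ext fun u => Subtype.ext (hc u (hUW u.2))⟩)
    (fun g hg => LinearMap.ext fun u => Subtype.ext (by
      have := hR' g hg u (hUW u.2)
      simpa [cs] using this)) hne XU
    (IsUnit.of_pow_eq_one (n := p ^ (e + 1))
      (LinearMap.ext fun u => Subtype.ext (by rw [hXU, hX]; rfl)) (by omega)) σ
    (fun g => LinearMap.ext fun u => Subtype.ext (LinearMap.congr_fun (hXσ g) u))
    (fun g hg => by simpa using hσR 1 g hg) _ hσ hf s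
    (LinearMap.ext fun u => Subtype.ext (by rw [hXU1, hs _ (hUW u.2)]; rfl)) hsh
  refine ⟨fun hc => hne (eq_top_iff.mpr fun g _ => hcen g fun c => hc c g), ?_, h2⟩
  obtain ⟨a, ha⟩ := IsPGroup.iff_card.mp hQ
  have h3 : p ^ (e + 1) - 1 ∣ q ^ a :=
    (dvd_pow_self _ two_ne_zero).trans (h1 ▸ ha ▸ R.index_dvd_card)
  obtain ⟨m, -, hm⟩ := (Nat.dvd_prime_pow Fact.out).mp h3
  refine ⟨m, Nat.pos_of_ne_zero ?_, hm⟩
  rintro rfl
  rw [hm, pow_zero, one_pow] at h1
  exact hne (R.index_eq_one.mp h1.symm)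

end Cfsg.Lib.HH
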