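import Cfsg.Agent.Lib.HH.Nil

/-!
# Hall–Higman: the irreducible case
-/

set_option autoImplicit false

namespace Cfsg.Lib.HH
open Module

variable {F : Type*} [Field F] {Q : Type*} [Group Q]
  {U : Type*} [AddCommGroup U] [Module F U]

/-- No invariant subspaces but the trivial ones. -/
def Irr (ρ : Q →* End F U) : Prop :=
  ∀ W : Submodule F U, (∀ g, ∀ w ∈ W, ρ g w ∈ W) → W = ⊥ ∨ W = ⊤

theorem schur [IsAlgClosed F] [FiniteDimensional F U] [Nontrivial U] {ρ : Q →* End F U}
    (hirr : Irr ρ) (f : End F U) (hf : ∀ g, ρ g * f = f * ρ g) : ∃ c : F, ∀ u, f u = c • u := by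
  obtain ⟨c, hc⟩ := End.exists_eigenvalue f
  refine ⟨c, fun u => ?_⟩
  rcases hirr (f.eigenspace c) (fun g w hw => by
    rw [End.mem_eigenspace_iff] at hw ⊢
    rw [← End.mul_apply, ← hf, End.mul_apply, hw, map_smul]) with h | h
  · exact absurd h (End.hasEigenvalue_iff.mp hc)
  · exact End.mem_eigenspace_iff.mp (h ▸ Submodule.mem_top)

theorem burnside [IsAlgClosed F] [FiniteDimensional F U] [Nontrivial U] {ρ : Q →* End F U}
    (hirr : Irr ρ) : Submodule.span F (Set.range ρ) = ⊤ := by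
  let A : Subalgebra F (End F U) := (Submodule.span F (Set.range ρ)).toSubalgebra
    (Submodule.subset_span ⟨1, map_one ρ⟩) (by
      intro x y hx hy
      have := Submodule.mul_mem_mul hx hy
      rw [Submodule.span_mul_span] at this
      refine Submodule.span_mono ?_ this
      rintro _ ⟨_, ⟨a, rfl⟩, _, ⟨b, rfl⟩, rfl⟩
      exact ⟨a * b, map_mul ρ a b⟩)
  have hA : ∀ g, ρ g ∈ A := fun g => Submodule.subset_span ⟨g, rfl⟩
  have hs : IsSimpleModule A U := by
    rw [isSimpleModule_iff]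
    refine { eq_bot_or_eq_top := fun W => ?_ }
    rcases hirr (W.restrictScalars F) (fun g w hw => W.smul_mem ⟨ρ g, hA g⟩ hw) with h | h
    · exact Or.inl ((Submodule.restrictScalars_eq_bot_iff F A U).mp h)
    · exact Or.inr ((Submodule.restrictScalars_eq_top_iff F A U).mp h)
  rw [eq_top_iff]
  intro f _
  let T : End (End A U) U :=
    { toFun := f
      map_add' := f.map_add
      map_smul' := fun φ m => by
        obtain ⟨c, hc⟩ := schur hirr (φ.restrictScalars F) fun g => LinearMap.ext fun u =>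
          (φ.map_smul (⟨ρ g, hA g⟩ : A) u).symm
        have h1 : ∀ u, φ u = c • u := hc
        simp only [End.smul_def, RingHom.id_apply, h1, map_smul] }
  obtain ⟨s, hs⟩ := Module.Finite.fg_top (R := F) (M := U)
  obtain ⟨a, ha⟩ := jacobson_density T s
  have : f = a := LinearMap.ext_on hs fun m hm => ha m hm
  rw [this]
  exact a.2

theorem arith {D o c s h : ℕ} (h2 : 2 ≤ D ^ 2) (ho : o * h = D ^ 2 + (h - 1)) (hc : c ≤ o)
    (hD : D ≤ c) (hs : D ^ 2 ≤ s * c) (hsh : s < h) : D = h - 1 ∧ h - 1 ≤ s := by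
  obtain ⟨k, rfl⟩ : ∃ k, h = k + 1 := ⟨h - 1, by omega⟩
  simp only [Nat.add_sub_cancel] at ho ⊢
  have hD2 : 2 ≤ D := by
    by_contra hlt
    have : D = 0 ∨ D = 1 := by omega
    rcases this with rfl | rfl <;> simp at h2
  obtain ⟨E, rfl⟩ : ∃ E, D = E + 1 := ⟨D - 1, by omega⟩
  have h1 : k ≤ E + 1 := by
    by_contra hlt
    have : (E + 1) * (k + 1) ≤ o * (k + 1) := Nat.mul_le_mul_right _ (hD.trans hc)
    nlinarith
  have h3 : E + 1 ≤ k := by
    by_contra hlt
    have h4 : (E + 1) ^ 2 ≤ k * o := hs.trans (Nat.mul_le_mul (by omega) hc)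
    have h5 : (E + 1) ^ 2 * (k + 1) ≤ k * (o * (k + 1)) := by
      rw [← mul_assoc]; exact Nat.mul_le_mul_right _ h4
    rw [ho] at h5
    nlinarith
  have h4 : E + 1 = k := by omega
  subst h4
  refine ⟨rfl, ?_⟩
  have h5 : o = E + 1 := Nat.eq_of_mul_eq_mul_right (m := E + 1 + 1) (by omega) (by rw [ho]; ring)
  have h6 : (E + 1) * (E + 1) ≤ s * (E + 1) := by
    rw [← sq]; exact hs.trans (Nat.mul_le_mul_left _ (h5 ▸ hc))
  exact Nat.le_of_mul_le_mul_right h6 (by omega)

theorem card_orbits {Ω : Type*} [Finite Ω] (τ : Equiv.Perm Ω) (a : Ω) (h : ℕ)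
    (hτ : orderOf τ = h) (ha : τ a = a)
    (hf : ∀ j, 0 < j → j < h → ∀ b, (τ ^ j) b = b → b = a) :
    Nat.card (MulAction.orbitRel.Quotient (Subgroup.zpowers τ) Ω) * h = Nat.card Ω + (h - 1) := by
  classical
  have := Fintype.ofFinite Ω
  have := Fintype.ofFinite (MulAction.orbitRel.Quotient (Subgroup.zpowers τ) Ω)
  have h1 := MulAction.sum_card_fixedBy_eq_card_orbits_mul_card_group (Subgroup.zpowers τ) Ω
  rw [Fintype.card_zpowers, hτ] at h1
  rw [Nat.card_eq_fintype_card, Nat.card_eq_fintype_card, ← h1,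
    ← Finset.add_sum_erase _ _ (Finset.mem_univ 1)]
  congr 1
  · simp
  · rw [Finset.sum_const_nat (m := 1), mul_one, Finset.card_erase_of_mem (Finset.mem_univ _),
      Finset.card_univ, Fintype.card_zpowers, hτ]
    rintro ⟨c, hc⟩ hc1
    rw [mem_zpowers_iff_mem_range_orderOf, Finset.mem_image] at hc
    obtain ⟨j, hj, rfl⟩ := hc
    have hj0 : 0 < j := by
      rcases Nat.eq_zero_or_pos j with rfl | h0
      · exact absurd (Subtype.ext (pow_zero τ)) (Finset.ne_of_mem_erase hc1)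
      · exact h0
    rw [Fintype.card_eq_one_iff]
    refine ⟨⟨a, ?_⟩, fun b => Subtype.ext (hf j hj0 (hτ ▸ Finset.mem_range.mp hj) b b.2)⟩
    exact Equiv.Perm.pow_apply_eq_self_of_apply_eq_self ha j

theorem core [IsAlgClosed F] [FiniteDimensional F U] [Nontrivial U] [Fintype Q]
    {ρ : Q →* End F U} (hirr : Irr ρ) (hQ : (Fintype.card Q : F) ≠ 0)
    (R : Subgroup Q) [R.Normal] (hR : ∀ g ∈ R, ∃ c : F, ρ g = c • 1)
    (hR' : ∀ g ∉ R, ∑ h, ρ (h * g * h⁻¹) = 0) (hne : R ≠ ⊤)
    (X : End F U) (hX : IsUnit X) (σ : MulAut Q) (hXσ : ∀ g, X * ρ g = ρ (σ g) * X)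
    (hσR : ∀ g ∈ R, σ g ∈ R) (h : ℕ) (hσ : σ ^ h = 1)
    (hf : ∀ j, 0 < j → j < h → ∀ g, g⁻¹ * (σ ^ j) g ∈ R → g ∈ R)
    (s : ℕ) (hs : (X - 1) ^ s = 0) (hsh : s < h) :
    (h - 1) ^ 2 = R.index ∧ h - 1 ≤ s := by
  classical
  have := Fintype.ofFinite (Q ⧸ R)
  let t : Q ⧸ R → End F U := fun c => ρ c.out
  have ht : ∀ g : Q, ∃ c : F, ρ g = c • t (g : Q ⧸ R) := by
    intro g
    have h1 : (g : Q ⧸ R).out⁻¹ * g ∈ R := QuotientGroup.eq.mp (QuotientGroup.out_eq' _)
    obtain ⟨c, hc⟩ := hR _ h1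
    refine ⟨c, ?_⟩
    rw [← mul_inv_cancel_left (g : Q ⧸ R).out g, map_mul, hc, mul_inv_cancel_left]
    simp [t]
  have hli : LinearIndependent F t := by
    rw [Fintype.linearIndependent_iff]
    intro α hα d
    have h1 : ∑ k, ρ k * (ρ d.out⁻¹ * ∑ c, α c • t c) * ρ k⁻¹ = 0 := by simp [hα]
    have h2 : ∑ k, ρ k * (ρ d.out⁻¹ * ∑ c, α c • t c) * ρ k⁻¹ =
        ∑ c, α c • ∑ k, ρ (k * (d.out⁻¹ * c.out) * k⁻¹) := by
      simp only [Finset.mul_sum, Finset.sum_mul, Finset.smul_sum, map_mul, mul_smul_comm,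
        smul_mul_assoc, t]
      exact Finset.sum_comm
    rw [h2, Finset.sum_eq_single d] at h1
    · simp only [inv_mul_cancel, mul_one, mul_inv_cancel, map_one, Finset.sum_const,
        Finset.card_univ] at h1
      rw [← Nat.cast_smul_eq_nsmul F, smul_smul, smul_eq_zero] at h1
      rcases h1 with h1 | h1
      · exact (mul_eq_zero.mp h1).resolve_right hQ
      · exact absurd h1 one_ne_zero
    · intro c _ hcd
      rw [hR', smul_zero]
      intro hm
      apply hcd
      have := QuotientGroup.eq.mpr hm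
      rw [QuotientGroup.out_eq', QuotientGroup.out_eq'] at this
      exact this.symm
    · simp
  have hsp : ⊤ ≤ Submodule.span F (Set.range t) := by
    rw [← burnside hirr, Submodule.span_le]
    rintro _ ⟨g, rfl⟩
    obtain ⟨c, hc⟩ := ht g
    rw [hc]
    exact Submodule.smul_mem _ _ (Submodule.subset_span ⟨_, rfl⟩)
  let b : Basis (Q ⧸ R) F (End F U) := Basis.mk hli hsp
  have hb : ∀ c, b c = t c := fun c => Basis.mk_apply _ _ c
  have hD : finrank F U ^ 2 = R.index := by
    rw [Subgroup.index, Nat.card_eq_fintype_card, ← finrank_eq_card_basis b,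
      Module.finrank_linearMap, sq]
  let τ0 : Q ⧸ R →* Q ⧸ R := QuotientGroup.map R R σ.toMonoidHom hσR
  have hτ0 : Function.Surjective τ0 := by
    intro c
    obtain ⟨g, rfl⟩ := QuotientGroup.mk_surjective c
    exact ⟨(σ.symm g : Q), by simp [τ0]⟩
  let τ : Equiv.Perm (Q ⧸ R) := Equiv.ofBijective τ0 (Finite.surjective_iff_bijective.mp hτ0)
  have hτ1 : ∀ g : Q, τ (g : Q ⧸ R) = (σ g : Q) := fun g => rfl
  have hτ : ∀ (j : ℕ) (g : Q), (τ ^ j) (g : Q ⧸ R) = ((σ ^ j) g : Q) := by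
    intro j
    induction j with
    | zero => intro g; simp
    | succ j ih => intro g; rw [pow_succ', pow_succ', Equiv.Perm.mul_apply, ih, hτ1]; rfl
  have hfix : ∀ j, 0 < j → j < h → ∀ c, (τ ^ j) c = c → c = 1 := by
    intro j h0 hj c hc
    obtain ⟨g, rfl⟩ := QuotientGroup.mk_surjective c
    rw [hτ, eq_comm, QuotientGroup.eq] at hc
    exact (QuotientGroup.eq_one_iff g).mpr (hf j h0 hj g hc)
  have hord : orderOf τ = h := by
    rw [orderOf_eq_iff (by omega)]
    constructor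
    · ext c
      obtain ⟨g, rfl⟩ := QuotientGroup.mk_surjective c
      rw [hτ, hσ]; rfl
    · intro j hj h0 h1
      apply hne
      rw [eq_top_iff]
      intro g _
      exact (QuotientGroup.eq_one_iff g).mp (hfix j h0 hj _ (by rw [h1]; rfl))
  have horb := card_orbits τ 1 h hord (map_one τ0) hfix
  set O := MulAction.orbitRel.Quotient (Subgroup.zpowers τ) (Q ⧸ R)
  let C : Submodule F (End F U) := LinearMap.ker (LinearMap.mulLeft F X - LinearMap.mulRight F X)
  have hC : ∀ f, f ∈ C ↔ X * f = f * X := fun f => by simp [C, sub_eq_zero]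
  obtain ⟨h1, h2⟩ := nil_centralizer (X - 1) s hs C fun f hf => by
    rw [hC]; simpa [sub_mul, mul_sub] using hf
  have hstep : ∀ f ∈ C, ∀ c, b.repr f c = 0 → b.repr f (τ c) = 0 := by
    intro f hf c hc
    choose γ hγ using ht
    have h3 : ∀ d : Q ⧸ R, X * b d = γ (σ d.out) • b (τ d) * X := by
      intro d
      rw [hb, hb, hXσ, hγ, ← hτ1, QuotientGroup.out_eq']
    have h4 : ∑ d, (b.repr f d * γ (σ d.out)) • b (τ d) = f := by
      apply hX.mul_right_cancel
      rw [← (hC f).mp hf]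
      conv_rhs => rw [← b.sum_repr f]
      simp only [Finset.sum_mul, Finset.mul_sum, mul_smul_comm, h3, smul_mul_assoc, smul_smul]
    rw [← h4, map_sum, Finsupp.finsetSum_apply, Finset.sum_eq_single c]
    · rw [hc]; simp
    · intro d _ hd
      rw [map_smul, b.repr_self, Finsupp.smul_apply, Finsupp.single_eq_of_ne, smul_zero]
      exact fun h => hd (τ.injective h).symm
    · simp
  have h3 : finrank F C ≤ Nat.card O := by
    have := Fintype.ofFinite O
    let m : C →ₗ[F] (O → F) := LinearMap.pi fun o => (b.coord (Quotient.out o)) ∘ₗ C.subtype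
    rw [Nat.card_eq_fintype_card, ← Module.finrank_fintype_fun_eq_card F]
    apply LinearMap.finrank_le_finrank_of_injective (f := m)
    rw [injective_iff_map_eq_zero]
    intro f hf
    have h4 : ∀ (j : ℕ) c, b.repr f c = 0 → b.repr f ((τ ^ j) c) = 0 := by
      intro j c hc
      induction j with
      | zero => simpa using hc
      | succ j ih => rw [pow_succ', Equiv.Perm.mul_apply]; exact hstep f f.2 _ ih
    apply Subtype.ext
    apply b.repr.injective
    ext c
    let o : O := Quotient.mk _ c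
    have h5 : (MulAction.orbitRel (Subgroup.zpowers τ) (Q ⧸ R)) c o.out :=
      Quotient.exact (Quotient.out_eq o).symm
    obtain ⟨⟨u, hu⟩, hc⟩ := MulAction.orbitRel_apply.mp h5
    obtain ⟨j, rfl⟩ := (mem_powers_iff_mem_zpowers.mpr hu : u ∈ Submonoid.powers τ)
    have h6 : (τ ^ j) o.out = c := hc
    rw [← h6, h4 j _ (congrFun hf o)]
    simp
  have h4 : 2 ≤ R.index := by
    have := R.index_ne_zero_of_finite
    have := mt R.index_eq_one.mp hne
    omega
  obtain ⟨h5, h6⟩ := arith (hD ▸ h4) (by rw [horb, hD]; rfl) h3 h1 h2 hsh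
  exact ⟨h5 ▸ hD, h6⟩

end Cfsg.Lib.HH
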