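import Cfsg.Agent.Lib.Quad.Stab
import Cfsg.Agent.Lib.Coprime.Sylow

/-!
# Hall–Higman: the group-theoretic reduction
-/

set_option autoImplicit false

namespace Cfsg.Lib.HH
open Subgroup Cfsg.Lib
open scoped commutatorElement

variable {G : Type*} [Group G] [Finite G]

theorem exists_special {p : ℕ} [hp : Fact p.Prime] (hsol : IsPSolvable p G)
    (hO : pCore p G = ⊥) (x : G) (e : ℕ) (hx : orderOf x = p ^ (e + 1)) :
    ∃ (q : ℕ) (Q : Subgroup G), q.Prime ∧ p ≠ q ∧ IsPGroup q Q ∧ Q ≠ ⊥ ∧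
      x ∈ normalizer (Q : Set G) ∧
      (∀ S : Subgroup G, (∀ g ∈ Q, g⁻¹ * (x ^ p ^ e * g * (x ^ p ^ e)⁻¹) ∈ S) → Q ≤ S) ∧
      ∀ a ∈ Q, ∀ b ∈ Q, ∀ c ∈ Q, c * (a⁻¹ * b⁻¹ * a * b) = (a⁻¹ * b⁻¹ * a * b) * c := by
  set y := x ^ p ^ e with hy
  set K := pPrimeCore p G
  have hKp : ¬ p ∣ Nat.card K :=
    (Nat.Prime.coprime_iff_not_dvd hp.out).mp (coprime_card_pPrimeCore (p := p) (G := G)).symm
  have hA : IsPGroup p (zpowers x) := IsPGroup.of_card (by rw [Nat.card_zpowers, hx])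
  have hAK : CoprimeAct (zpowers x) K :=
    CoprimeAct.of_isPGroup hA hKp (by rw [normalizer_eq_top]; exact le_top)
  have hyo : orderOf y = p := by
    rw [hy, orderOf_pow_of_dvd (Nat.pow_pos hp.out.pos).ne' (hx ▸ pow_dvd_pow p e.le_succ), hx,
      pow_succ', Nat.mul_div_cancel _ (Nat.pow_pos hp.out.pos)]
  have hyK : ¬ K ≤ centralizer {y} := by
    intro h
    have h1 : y ∈ K := Quad.centralizer_pPrimeCore_le_of_isPSolvable hsol hO
      (fun k hk => (mem_centralizer_singleton_iff.mp (h hk)))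
    exact hKp (hyo ▸ orderOf_dvd_natCard K h1)
  obtain ⟨q, hq, hqK, hP⟩ : ∃ q : ℕ, q.Prime ∧ q ∣ Nat.card K ∧ ∃ P : Subgroup G, P ≤ K ∧
      IsPGroup q P ∧ zpowers x ≤ normalizer (P : Set G) ∧ ¬ P ≤ centralizer {y} := by
    by_contra hc
    push Not at hc
    refine hyK (le_of_forall_isSylowIn fun q hq hqK => ?_)
    have := Fact.mk hq
    obtain ⟨P, hP, hn⟩ := hAK.exists_isSylowIn q
    exact ⟨P, hP, hc q hq hqK P hP.le hP.isPGroup hn⟩
  have := Fact.mk hq
  obtain ⟨Q, ⟨hQK, hQ, hn, hQy⟩, hmin⟩ := WellFounded.has_min (wellFounded_lt (α := Subgroup G))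
    {P | P ≤ K ∧ IsPGroup q P ∧ zpowers x ≤ normalizer (P : Set G) ∧ ¬ P ≤ centralizer {y}} hP
  have hlt : ∀ L < Q, zpowers x ≤ normalizer (L : Set G) → L ≤ centralizer {y} := by
    intro L hL hLn
    by_contra hc
    exact hmin L ⟨hL.le.trans hQK, hQ.to_le hL.le, hLn, hc⟩ hL
  have hyx : zpowers y ≤ zpowers x := zpowers_le.mpr (pow_mem (mem_zpowers x) _)
  have hYQ : CoprimeAct (zpowers y) Q := (hAK.mono_right hQK hn).mono_left hyx
  have hQ0 : Q ≠ ⊥ := fun h => hQy (h ▸ bot_le)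
  have hcomm : ⁅Q, zpowers y⁆ = Q := by
    by_contra hc
    apply hQy
    rw [← centralizer_zpowers]
    apply hYQ.le_centralizer_of_commutator_le_centralizer
    rw [centralizer_zpowers]
    refine hlt _ (lt_of_le_of_ne hYQ.commutator_le hc) (zpowers_le.mpr ?_)
    apply mem_normalizer_of_map_conj_eq
    rw [map_commutator, map_conj_eq_of_mem_normalizer (hn (mem_zpowers x)),
      map_conj_eq_of_mem_normalizer]
    exact le_normalizer_of_le_of_comm inferInstance hyx (mem_zpowers x)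
  have hgen : ∀ S : Subgroup G, (∀ g ∈ Q, g⁻¹ * (y * g * y⁻¹) ∈ S) → Q ≤ S := by
    intro S hS
    have h1 : ∀ (j : ℕ), ∀ g ∈ Q, g⁻¹ * (y ^ j * g * (y ^ j)⁻¹) ∈ S := by
      intro j g hg
      induction j with
      | zero => simp
      | succ j ih =>
        have := S.mul_mem ih (hS _ (hYQ.conj_mem (pow_mem (mem_zpowers y) j) hg))
        rw [pow_succ']
        simpa [mul_assoc] using this
    rw [← hcomm, commutator_le]
    intro g hg a ha
    obtain ⟨j, rfl⟩ := (mem_powers_iff_mem_zpowers.mpr ha : a ∈ Submonoid.powers y)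
    simpa [commutatorElement_def, mul_assoc] using h1 j g⁻¹ (Q.inv_mem hg)
  refine ⟨q, Q, hq, fun h => hKp (h ▸ hqK), hQ, hQ0, hn (mem_zpowers x), hgen, ?_⟩
  have hD : ⁅Q, Q⁆ ≤ centralizer {y} := by
    refine hlt _ (commutator_lt_of_isSolvable (isSolvable_of_isPGroup hQ) hQ0) (zpowers_le.mpr ?_)
    apply mem_normalizer_of_map_conj_eq
    rw [map_commutator, map_conj_eq_of_mem_normalizer (hn (mem_zpowers x))]
  intro a ha b hb c hc
  have hz : a⁻¹ * b⁻¹ * a * b ∈ ⁅Q, Q⁆ := by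
    simpa [commutatorElement_def] using commutator_mem_commutator (Q.inv_mem ha) (Q.inv_mem hb)
  generalize a⁻¹ * b⁻¹ * a * b = z at hz
  refine mem_centralizer_singleton_iff.mp (hgen (centralizer {z}) (fun g hg => ?_) hc)
  have h1 := mem_centralizer_singleton_iff.mp (hD hz)
  have h2 := mem_centralizer_singleton_iff.mp
    (hD (conj_mem_of_le_normalizer (le_normalizer_commutator_left Q Q) hg hz))
  rw [mem_centralizer_singleton_iff]
  calc g⁻¹ * (y * g * y⁻¹) * z = g⁻¹ * y * g * y⁻¹ * (z * y) * y⁻¹ := by group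
    _ = g⁻¹ * (y * (g * z * g⁻¹)) * g * y⁻¹ := by rw [h1]; group
    _ = z * (g⁻¹ * (y * g * y⁻¹)) := by rw [← h2]; group

end Cfsg.Lib.HH
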