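import Cfsg.Agent.Lib.HH.Core

/-!
# Hall–Higman: auxiliary lemmas
-/

set_option autoImplicit false

namespace Cfsg.Lib.HH
open Module Polynomial

variable {F : Type*} [Field F] {Q : Type*} [Group Q]
  {V : Type*} [AddCommGroup V] [Module F V]

/-- The restriction to an invariant subspace. -/
def subRep (ρ : Q →* End F V) (U : Submodule F V) (hU : ∀ g, ∀ w ∈ U, ρ g w ∈ U) :
    Q →* End F U :=
  Representation.subrepresentation ρ U hU

@[simp] theorem subRep_apply (ρ : Q →* End F V) (U : Submodule F V)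
    (hU : ∀ g, ∀ w ∈ U, ρ g w ∈ U) (g : Q) (u : U) : (subRep ρ U hU g u : V) = ρ g u := rfl

theorem exists_irr [FiniteDimensional F V] (ρ : Q →* End F V) (W : Submodule F V)
    (hW : ∀ g, ∀ w ∈ W, ρ g w ∈ W) (h0 : W ≠ ⊥) :
    ∃ (U : Submodule F V) (hU : ∀ g, ∀ w ∈ U, ρ g w ∈ U), U ≤ W ∧ U ≠ ⊥ ∧ Irr (subRep ρ U hU) := by
  obtain ⟨U, ⟨hU, hle, hne⟩, hmin⟩ := WellFounded.has_min (wellFounded_lt (α := Submodule F V))
    {U | (∀ g, ∀ w ∈ U, ρ g w ∈ U) ∧ U ≤ W ∧ U ≠ ⊥} ⟨W, hW, le_rfl, h0⟩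
  refine ⟨U, hU, hle, hne, fun T hT => ?_⟩
  by_cases h : T = ⊥
  · exact Or.inl h
  · right
    have h1 : T.map U.subtype ≤ U := U.map_subtype_le T
    have h2 := hmin (T.map U.subtype) ⟨by
      rintro g _ ⟨w, hw, rfl⟩
      exact ⟨_, hT g w hw, rfl⟩, h1.trans hle, by
      intro hb
      exact h (Submodule.map_injective_of_injective U.injective_subtype
        (hb.trans (Submodule.map_bot _).symm))⟩
    have h3 : T.map U.subtype = U := by
      by_contra hc
      exact h2 (lt_of_le_of_ne h1 hc)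
    rw [eq_top_iff]
    intro u _
    obtain ⟨w, hw, hwu⟩ := h3.ge u.2
    exact (Subtype.ext hwu : w = u) ▸ hw

theorem eq_zero_of_sum_eigen {ι κ : Type*} (T : κ → End F V) (χ : ι → κ → F) (χ₀ : κ → F)
    (s : Finset ι) (hs : ∀ j ∈ s, χ j ≠ χ₀) (w : ι → V) (hw : ∀ j ∈ s, ∀ g, T g (w j) = χ j g • w j)
    (w₀ : V) (hw₀ : ∀ g, T g w₀ = χ₀ g • w₀) (h : w₀ + ∑ j ∈ s, w j = 0) : w₀ = 0 := by
  classical
  induction s using Finset.induction_on generalizing w w₀ with
  | empty => simpa using h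
  | insert a s ha ih =>
    obtain ⟨g, hg⟩ := Function.ne_iff.mp (hs a (Finset.mem_insert_self a s))
    have h1 := ih (fun j hj => hs j (Finset.mem_insert_of_mem hj))
      (fun j => (χ j g - χ a g) • w j) (fun j hj k => by
        rw [map_smul, hw j (Finset.mem_insert_of_mem hj), smul_comm])
      ((χ₀ g - χ a g) • w₀) (fun k => by rw [map_smul, hw₀, smul_comm]) (by
        have h2 := congrArg (T g - χ a g • 1 : End F V) h
        rw [Finset.sum_insert ha, map_zero, map_add, map_add, map_sum] at h2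
        simp only [LinearMap.sub_apply, LinearMap.smul_apply, End.one_apply] at h2
        rw [hw a (Finset.mem_insert_self a s), hw₀, sub_self, zero_add,
          Finset.sum_congr rfl fun j hj => by rw [hw j (Finset.mem_insert_of_mem hj)]] at h2
        simpa only [sub_smul] using h2)
    exact (smul_eq_zero.mp h1).resolve_left (sub_ne_zero.mpr (Ne.symm hg))

theorem sub_one_pow_char (p : ℕ) [Fact p.Prime] [CharP F p] (X : End F V) (k : ℕ) :
    (X - 1) ^ p ^ k = X ^ p ^ k - 1 ∧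
      (X - 1) ^ (p ^ k - 1) = ∑ i ∈ Finset.range (p ^ k), X ^ i := by
  have h1 : ((Polynomial.X : F[X]) - 1) ^ p ^ k = Polynomial.X ^ p ^ k - 1 := by
    rw [sub_pow_char_pow, one_pow]
  have h2 : ((Polynomial.X : F[X]) - 1) ^ (p ^ k - 1) =
      ∑ i ∈ Finset.range (p ^ k), Polynomial.X ^ i := by
    have h0 : (Polynomial.X : F[X]) - 1 ≠ 0 := by simpa using X_sub_C_ne_zero (1 : F)
    apply mul_right_cancel₀ h0
    rw [geom_sum_mul, ← pow_succ, Nat.sub_add_cancel (Nat.pow_pos (Fact.out : p.Prime).pos), h1]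
  exact ⟨by simpa using congrArg (aeval X) h1, by simpa using congrArg (aeval X) h2⟩

theorem exists_pow_eq_pow_pred {M : Type*} [Monoid M] {p : ℕ} (hp : p.Prime) {a : M} {e j : ℕ}
    (ha : a ^ p ^ (e + 1) = 1) (h0 : 0 < j) (hj : j < p ^ (e + 1)) :
    ∃ t, (a ^ j) ^ t = a ^ p ^ e := by
  obtain ⟨c, j', hj', rfl⟩ := Nat.exists_eq_pow_mul_and_not_dvd h0.ne' p hp.ne_one
  have hc : c ≤ e := by
    by_contra hlt
    have h1 : p ^ (e + 1) ≤ p ^ c := Nat.pow_le_pow_right hp.pos (by omega)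
    have h2 : 0 < j' := Nat.pos_of_ne_zero (by rintro rfl; simp at hj')
    nlinarith
  have hcop : j'.Coprime (p ^ (e + 1)) :=
    ((Nat.Prime.coprime_iff_not_dvd hp).mpr hj').symm.pow_right _
  obtain ⟨t, -, ht⟩ := Nat.exists_mul_mod_eq_one_of_coprime hcop
    (Nat.one_lt_pow (by omega) hp.one_lt)
  refine ⟨t * p ^ (e - c), ?_⟩
  have h3 : a ^ (j' * t) = a := by
    rw [← Nat.div_add_mod (j' * t) (p ^ (e + 1)), ht, pow_add, pow_mul, ha, one_pow, one_mul,
      pow_one]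
  rw [← pow_mul, show p ^ c * j' * (t * p ^ (e - c)) = j' * t * p ^ e by
    rw [show p ^ e = p ^ c * p ^ (e - c) by rw [← pow_add]; congr 1; omega]; ring, pow_mul, h3]

theorem mem_of_fpf [Finite Q] (R : Subgroup Q) [R.Normal] (hc : ∀ a b : Q, a⁻¹ * b⁻¹ * a * b ∈ R)
    (τ : MulAut Q) (hτ : ∀ g ∈ R, τ g ∈ R)
    (hgen : ∀ S : Subgroup Q, (∀ g, g⁻¹ * τ g ∈ S) → S = ⊤) (g : Q) (hg : g⁻¹ * τ g ∈ R) :
    g ∈ R := by
  have hcomm : ∀ a b : Q ⧸ R, a * b = b * a := by
    intro a b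
    obtain ⟨a, rfl⟩ := QuotientGroup.mk_surjective a
    obtain ⟨b, rfl⟩ := QuotientGroup.mk_surjective b
    rw [← QuotientGroup.mk_mul, ← QuotientGroup.mk_mul, QuotientGroup.eq]
    simpa [mul_assoc] using hc b a
  let φ : Q →* Q ⧸ R := MonoidHom.mk' (fun g => ((g⁻¹ * τ g : Q) : Q ⧸ R)) fun a b => by
    simp only [map_mul, mul_inv_rev, QuotientGroup.mk_mul]
    letI : CommGroup (Q ⧸ R) := { (inferInstance : Group (Q ⧸ R)) with mul_comm := hcomm }
    rw [mul_comm ((b⁻¹ : Q) : Q ⧸ R)]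
    exact mul_mul_mul_comm _ _ _ _
  have h1 : φ.range = ⊤ := by
    have := hgen (φ.range.comap (QuotientGroup.mk' R)) fun g => ⟨g, rfl⟩
    rw [eq_top_iff]
    intro c _
    obtain ⟨a, rfl⟩ := QuotientGroup.mk_surjective c
    exact this.ge (Subgroup.mem_top a)
  have h2 : R ≤ φ.ker := fun a ha =>
    (QuotientGroup.eq_one_iff _).mpr (R.mul_mem (R.inv_mem ha) (hτ a ha))
  have h3 : φ.ker.index = R.index := by
    rw [Subgroup.index_ker, h1, Subgroup.card_top]; rfl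
  have h4 : R = φ.ker := by
    apply Subgroup.eq_of_le_of_card_ge h2
    have h5 := R.card_mul_index
    rw [← φ.ker.card_mul_index, h3] at h5
    exact (Nat.eq_of_mul_eq_mul_right (Nat.pos_of_ne_zero R.index_ne_zero_of_finite) h5).ge
  rw [h4]
  exact (QuotientGroup.eq_one_iff _).mpr hg

end Cfsg.Lib.HH
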