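import Mathlib

/-!
# Lower bounds for the dimension of the commutant of a nilpotent operator
-/

set_option autoImplicit false

namespace Cfsg.Lib.HH
open Module

variable {F : Type*} [Field F]

theorem card_le_finrank_comm {I : Type*} [Fintype I] [DecidableEq I] (N : Matrix I I F)
    (l : I → ℕ) (hN : ∀ j i, N j i ≠ 0 → l j < l i) (C : Submodule F (Matrix I I F))
    (hC : ∀ f, N * f = f * N → f ∈ C) :
    (Finset.univ.filter fun ij : I × I => l ij.1 = l ij.2).card ≤ finrank F C := by
  classical
  let A := {ij : I × I // l ij.1 ≤ l ij.2}
  let B := {ij : I × I // l ij.1 < l ij.2}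
  let ex : (A → F) →ₗ[F] Matrix I I F :=
    { toFun := fun f => Matrix.of fun j i => if h : l j ≤ l i then f ⟨(j, i), h⟩ else 0
      map_add' := fun f g => by
        ext j i; simp only [Matrix.add_apply, Pi.add_apply, Matrix.of_apply]; split_ifs <;> simp
      map_smul' := fun c f => by
        ext j i; simp only [Matrix.smul_apply, Pi.smul_apply, RingHom.id_apply, Matrix.of_apply]
        split_ifs <;> simp }
  have hext : Function.Injective ex := by
    intro f g h
    funext ⟨⟨j, i⟩, hji⟩
    have := congrFun (congrFun h j) i
    simpa [ex, dif_pos hji] using this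
  have hext0 : ∀ f j i, ex f j i ≠ 0 → l j ≤ l i := by
    intro f j i h
    by_contra hc
    exact h (dif_neg hc)
  let Φ : (A → F) →ₗ[F] (B → F) :=
    { toFun := fun f ij => (N * ex f - ex f * N) ij.1.1 ij.1.2
      map_add' := fun f g => by
        funext ij; simp only [map_add, Pi.add_apply, mul_add, add_mul, Matrix.sub_apply,
          Matrix.add_apply]; ring
      map_smul' := fun c f => by
        funext ij; simp only [map_smul, Pi.smul_apply, RingHom.id_apply, Matrix.mul_smul,
          Matrix.smul_mul, Matrix.sub_apply, Matrix.smul_apply, smul_eq_mul]; ring }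
  have hker : ∀ f ∈ LinearMap.ker Φ, ex f ∈ C := by
    intro f hf
    apply hC
    ext j i
    by_cases h : l j < l i
    · have := congrFun (LinearMap.mem_ker.mp hf) ⟨(j, i), h⟩
      simpa [Φ, sub_eq_zero] using this
    · rw [Matrix.mul_apply, Matrix.mul_apply, Finset.sum_eq_zero, Finset.sum_eq_zero]
      · intro k _
        by_contra hc
        have h1 := hext0 f j k (left_ne_zero_of_mul hc)
        have h2 := hN k i (right_ne_zero_of_mul hc)
        omega
      · intro k _
        by_contra hc
        have h1 := hN j k (left_ne_zero_of_mul hc)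
        have h2 := hext0 f k i (right_ne_zero_of_mul hc)
        omega
  have h1 : finrank F (LinearMap.ker Φ) ≤ finrank F C := by
    let m : LinearMap.ker Φ →ₗ[F] C :=
      LinearMap.codRestrict C (ex ∘ₗ (LinearMap.ker Φ).subtype) fun f => hker f f.2
    apply LinearMap.finrank_le_finrank_of_injective (f := m)
    intro f g h
    exact Subtype.ext (hext (congrArg Subtype.val h))
  have h2 := LinearMap.finrank_range_add_finrank_ker Φ
  have h3 : finrank F (LinearMap.range Φ) ≤ Fintype.card B := by
    have := Submodule.finrank_le (LinearMap.range Φ)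
    rwa [Module.finrank_fintype_fun_eq_card] at this
  rw [Module.finrank_fintype_fun_eq_card] at h2
  have h4 : Fintype.card A = Fintype.card B +
      (Finset.univ.filter fun ij : I × I => l ij.1 = l ij.2).card := by
    rw [Fintype.card_subtype, Fintype.card_subtype, ← Finset.card_union_of_disjoint]
    · congr 1
      ext ij
      simp only [Finset.mem_filter, Finset.mem_univ, true_and, Finset.mem_union]
      omega
    · rw [Finset.disjoint_filter]
      intro ij _ h
      omega
  omega

theorem card_levels {I : Type*} [Fintype I] (l : I → ℕ) (s : ℕ) (hl : ∀ i, l i < s) :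
    Fintype.card I ≤ (Finset.univ.filter fun ij : I × I => l ij.1 = l ij.2).card ∧
    Fintype.card I ^ 2 ≤ s * (Finset.univ.filter fun ij : I × I => l ij.1 = l ij.2).card := by
  classical
  constructor
  · rw [← Finset.card_univ]
    apply Finset.card_le_card_of_injOn (fun i => (i, i))
    · intro i _; simp
    · intro i _ j _ h; exact (Prod.mk.inj h).1
  · let d : ℕ → ℕ := fun t => (Finset.univ.filter fun i => l i = t).card
    have h1 : Fintype.card I = ∑ t ∈ Finset.range s, d t := by
      rw [← Finset.card_univ]
      exact Finset.card_eq_sum_card_fiberwise (f := l) fun i _ => by simpa using hl i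
    have h2 : (Finset.univ.filter fun ij : I × I => l ij.1 = l ij.2).card =
        ∑ t ∈ Finset.range s, d t ^ 2 := by
      rw [Finset.card_eq_sum_card_fiberwise (f := fun ij => l ij.1) (t := Finset.range s)
        fun i _ => by simpa using hl i.1]
      refine Finset.sum_congr rfl fun t _ => ?_
      rw [sq, ← Finset.card_product]
      congr 1
      ext ij
      simp only [Finset.mem_filter, Finset.mem_univ, true_and, Finset.mem_product]
      omega
    rw [h1, h2]
    have := sq_sum_le_card_mul_sum_sq (s := Finset.range s) (f := d)
    simpa using this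

variable {U : Type*} [AddCommGroup U] [Module F U]

theorem exists_adapted_set (N : End F U) (t : ℕ) :
    ∃ S : Set U, LinearIndepOn F id S ∧ Submodule.span F S = LinearMap.ker (N ^ t) ∧
      ∃ l : U → ℕ, (∀ v ∈ S, l v < t) ∧
        ∀ v ∈ S, N v ∈ Submodule.span F {w | w ∈ S ∧ l w < l v} := by
  classical
  induction t with
  | zero =>
    refine ⟨∅, linearIndepOn_empty _ _, ?_, fun _ => 0, by simp, by simp⟩
    rw [pow_zero, Submodule.span_empty]
    exact (LinearMap.ker_id).symm
  | succ t ih =>
    obtain ⟨S, hS, hsp, l, hl, hN⟩ := ih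
    have hsub : S ⊆ (LinearMap.ker (N ^ (t + 1)) : Set U) := by
      intro v hv
      have : v ∈ LinearMap.ker (N ^ t) := hsp ▸ Submodule.subset_span hv
      rw [SetLike.mem_coe, LinearMap.mem_ker, pow_succ', End.mul_apply,
        LinearMap.mem_ker.mp this, map_zero]
    have hSS := hS.subset_extend hsub
    refine ⟨hS.extend hsub, hS.linearIndepOn_extend hsub, ?_, fun v => if v ∈ S then l v else t,
      ?_, ?_⟩
    · apply le_antisymm
      · exact Submodule.span_le.mpr (hS.extend_subset hsub)
      · intro v hv
        have := hS.image_subset_span_image_extend hsub (Set.mem_image_of_mem _ hv)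
        simpa using this
    · intro v _
      dsimp only
      split_ifs with h
      · exact (hl v h).trans t.lt_succ_self
      · exact t.lt_succ_self
    · intro v hv
      by_cases h : v ∈ S
      · refine Submodule.span_mono ?_ (hN v h)
        rintro w ⟨hw, hlw⟩
        exact ⟨hSS hw, by simpa [hw, h] using hlw⟩
      · have h1 : N v ∈ Submodule.span F S := by
          rw [hsp, LinearMap.mem_ker, ← End.mul_apply, ← pow_succ]
          exact hS.extend_subset hsub hv
        refine Submodule.span_mono ?_ h1
        intro w hw
        exact ⟨hSS hw, by simpa [hw, h] using hl w hw⟩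

theorem nil_centralizer [FiniteDimensional F U] (N : End F U) (s : ℕ) (hN : N ^ s = 0)
    (C : Submodule F (End F U)) (hC : ∀ f, N * f = f * N → f ∈ C) :
    finrank F U ≤ finrank F C ∧ finrank F U ^ 2 ≤ s * finrank F C := by
  classical
  obtain ⟨S, hS, hsp, l, hl, hNS⟩ := exists_adapted_set N s
  rw [hN, LinearMap.ker_zero] at hsp
  let b : Basis S F U := Basis.mk (v := fun x : S => (x : U)) hS (by
    rw [← hsp, Subtype.range_coe])
  have hb : ∀ i, b i = i := fun i => Basis.mk_apply _ _ i
  have : Finite S := Module.Finite.finite_basis b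
  have := Fintype.ofFinite S
  have h1 := card_le_finrank_comm (LinearMap.toMatrix b b N) (fun i => l i) (by
      intro j i hji
      rw [LinearMap.toMatrix_apply, hb] at hji
      have h2 : N i ∈ Submodule.span F (b '' {w : S | l w < l i}) := by
        refine Submodule.span_mono ?_ (hNS i i.2)
        rintro w ⟨hw, hlw⟩
        exact ⟨⟨w, hw⟩, hlw, hb _⟩
      exact b.repr_support_subset_of_mem_span _ h2 (Finsupp.mem_support_iff.mpr hji))
    (C.map (LinearMap.toMatrix b b).toLinearMap) (by
      intro f hf
      refine ⟨Matrix.toLin b b f, hC _ ?_, by simp⟩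
      apply (LinearMap.toMatrix b b).injective
      rw [LinearMap.toMatrix_mul, LinearMap.toMatrix_mul, LinearMap.toMatrix_toLin, hf])
  rw [LinearEquiv.finrank_map_eq] at h1
  obtain ⟨h2, h3⟩ := card_levels (fun i : S => l i) s fun i => hl i i.2
  rw [finrank_eq_card_basis b]
  exact ⟨h2.trans h1, h3.trans (Nat.mul_le_mul_left _ h1)⟩

end Cfsg.Lib.HH
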