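import Cfsg.Agent.Lib.HH.Block

/-!
# Hall–Higman: the representation-theoretic statement
-/

set_option autoImplicit false

namespace Cfsg.Lib.HH
open Module

variable {F : Type*} [Field F] {Q : Type*} [Group Q] [Finite Q]
  {V : Type*} [AddCommGroup V] [Module F V]

theorem rep_closed [IsAlgClosed F] [FiniteDimensional F V] {p q : ℕ} [hp : Fact p.Prime]
    [CharP F p] [hq : Fact q.Prime] (hpq : p ≠ q) (hQ : IsPGroup q Q)
    (hcl : ∀ a b c : Q, c * (a⁻¹ * b⁻¹ * a * b) = (a⁻¹ * b⁻¹ * a * b) * c)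
    (ρ : Q →* End F V) (hnt : ∃ g, ρ g ≠ 1)
    (X : End F V) (σ : MulAut Q) (hXσ : ∀ g, X * ρ g = ρ (σ g) * X)
    (e : ℕ) (hX : X ^ p ^ (e + 1) = 1) (hσ : σ ^ p ^ (e + 1) = 1)
    (hgen : ∀ S : Subgroup Q, (∀ g, g⁻¹ * (σ ^ p ^ e) g ∈ S) → S = ⊤)
    (r : ℕ) (hr : (X - 1) ^ r = 0) :
    p ^ (e + 1) ≤ r ∨ ((¬ ∀ a b : Q, a * b = b * a) ∧ ∃ n₀ m, 1 ≤ n₀ ∧ n₀ ≤ e + 1 ∧ 1 ≤ m ∧
      p ^ n₀ - 1 = q ^ m ∧ p ^ (e + 1 - n₀) * (p ^ n₀ - 1) ≤ r) := by
  classical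
  have := Fintype.ofFinite Q
  have hQF : (Fintype.card Q : F) ≠ 0 := by
    obtain ⟨a, ha⟩ := IsPGroup.iff_card.mp hQ
    rw [← Nat.card_eq_fintype_card, ha, Ne, CharP.cast_eq_zero_iff F p]
    intro h
    exact hpq ((Nat.prime_dvd_prime_iff_eq hp.out hq.out).mp (hp.out.dvd_of_dvd_pow h))
  have hsum : ∀ k, (∑ g, ρ g) * ρ k = ∑ g, ρ g := fun k => by
    simp only [Finset.sum_mul, ← map_mul]
    exact Fintype.sum_equiv (Equiv.mulRight k) _ _ fun h => rfl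
  obtain ⟨U, hU, hUle, hU0, hirr⟩ := exists_irr ρ (LinearMap.ker (∑ g, ρ g)) (fun g w hw => by
    rw [LinearMap.mem_ker] at hw ⊢
    rw [← End.mul_apply, hsum, hw]) (by
    obtain ⟨g, hg⟩ := hnt
    obtain ⟨v, hv⟩ := DFunLike.ne_iff.mp hg
    rw [Submodule.ne_bot_iff]
    exact ⟨ρ g v - v, by rw [LinearMap.mem_ker, map_sub, ← End.mul_apply, hsum, sub_self],
      sub_ne_zero.mpr hv⟩)
  have := Submodule.nontrivial_iff_ne_bot.mpr hU0
  choose χ hχ using fun g => schur hirr (cs (subRep ρ U hU) g) (cs_comm _ g)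
  have hUW : U ≤ blk ρ χ := fun u hu => mem_blk.mpr fun g => by
    have := congrArg Subtype.val (hχ g ⟨u, hu⟩)
    simpa [cs] using this
  obtain ⟨u, hu, hu0⟩ := (Submodule.ne_bot_iff U).mp hU0
  have hnt' : ∃ g, ∃ w ∈ blk ρ χ, ρ g w ≠ w := by
    by_contra hc
    push Not at hc
    have h1 := LinearMap.mem_ker.mp (hUle hu)
    rw [LinearMap.sum_apply, Finset.sum_congr rfl fun g _ => hc g u (hUW hu), Finset.sum_const,
      Finset.card_univ, ← Nat.cast_smul_eq_nsmul F, smul_eq_zero] at h1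
    exact h1.elim hQF hu0
  have hXσj : ∀ (j : ℕ) g, X ^ j * ρ g = ρ ((σ ^ j) g) * X ^ j := by
    intro j g
    induction j with
    | zero => simp
    | succ j ih => rw [pow_succ', mul_assoc, ih, ← mul_assoc, hXσ, pow_succ' σ, mul_assoc]; rfl
  let f : (Q → F) → (Q → F) := fun ψ g => ψ (σ g)
  have hf : ∀ (j : ℕ) ψ, f^[j] ψ = fun g => ψ ((σ ^ j) g) := by
    intro j ψ
    induction j with
    | zero => rfl
    | succ j ih => rw [Function.iterate_succ_apply', ih, pow_succ]; rfl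
  have hper : Function.IsPeriodicPt f (p ^ (e + 1)) χ := by
    rw [Function.IsPeriodicPt, Function.IsFixedPt, hf, hσ]; rfl
  obtain ⟨k, hk, hm⟩ := (Nat.dvd_prime_pow hp.out).mp hper.minimalPeriod_dvd
  have hχk : ∀ g, χ ((σ ^ p ^ k) g) = χ g := by
    have := Function.isPeriodicPt_minimalPeriod f χ
    rw [hm, Function.IsPeriodicPt, Function.IsFixedPt, hf] at this
    exact congrFun this
  have hind : ∀ w ∈ blk ρ χ, (∑ i ∈ Finset.range (p ^ k), X ^ i) w = 0 → w = 0 := by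
    intro w hw h0
    rw [LinearMap.sum_apply, ← Finset.add_sum_erase _ _
      (Finset.mem_range.mpr (Nat.pow_pos hp.out.pos))] at h0
    refine eq_zero_of_sum_eigen (cs ρ) (fun i g => χ ((σ ^ i)⁻¹ g)) χ _ ?_ _
      (fun i _ => mem_blk.mp (twist_mem_blk (hXσj i) hw)) w (mem_blk.mp hw) h0
    intro i hi hc
    rw [Finset.mem_erase, Finset.mem_range] at hi
    have h1 : Function.IsPeriodicPt f i χ := by
      rw [Function.IsPeriodicPt, Function.IsFixedPt, hf]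
      funext g
      rw [← congrFun hc, MulAut.inv_apply_self]
    have := h1.minimalPeriod_le (Nat.pos_of_ne_zero hi.1)
    omega
  have hpk : 0 < p ^ k := Nat.pow_pos hp.out.pos
  have hWX : ∀ w ∈ blk ρ χ, (X ^ p ^ k) w ∈ blk ρ χ := fun w hw => by
    have := twist_mem_blk (hXσj (p ^ k)) hw
    rwa [show (fun g => χ ((σ ^ p ^ k)⁻¹ g)) = χ from funext fun g => by
      rw [← hχk, MulAut.apply_inv_self]] at this
  have hs : ∀ w ∈ blk ρ χ, ((X ^ p ^ k - 1) ^ (r / p ^ k)) w = 0 := by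
    intro w hw
    apply hind
    · generalize r / p ^ k = s
      induction s with
      | zero => simpa using hw
      | succ s ih =>
        rw [pow_succ', End.mul_apply]
        exact Submodule.sub_mem _ (hWX _ ih) ih
    · obtain ⟨h1, h2⟩ := sub_one_pow_char p X k
      have h3 := Nat.lt_mul_div_succ r hpk
      rw [← End.mul_apply, ← h1, ← h2, ← pow_mul, ← pow_add,
        pow_eq_zero_of_le (m := r) (by rw [mul_add, mul_one] at h3; omega) hr, LinearMap.zero_apply]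
  have hrs : p ^ k * (r / p ^ k) ≤ r := Nat.mul_div_le r _
  by_cases hsh : r / p ^ k < p ^ (e + 1 - k)
  · right
    have hke : k ≤ e := by
      by_contra hc
      rw [show e + 1 - k = 0 by omega, pow_zero, Nat.lt_one_iff] at hsh
      have := hs u (hUW hu)
      rw [hsh] at this
      exact hu0 this
    obtain ⟨d, rfl⟩ := Nat.exists_eq_add_of_le hke
    rw [show k + d + 1 - k = d + 1 by omega] at hsh
    obtain ⟨h1, ⟨m, hm1, hm2⟩, h3⟩ := block hp.out hQ hQF hcl ρ χ hnt' (X ^ p ^ k) (σ ^ p ^ k)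
      (hXσj _) hχk d (by rw [← pow_mul, ← pow_add, ← add_assoc, hX])
      (by rw [← pow_mul, ← pow_add, ← add_assoc, hσ])
      (by rw [← pow_mul, ← pow_add]; exact hgen) _ hs hsh
    refine ⟨h1, d + 1, m, by omega, by omega, hm1, hm2, ?_⟩
    rw [show k + d + 1 - (d + 1) = k by omega]
    exact (Nat.mul_le_mul_left _ h3).trans hrs
  · left
    refine le_trans ?_ hrs
    rw [show e + 1 = k + (e + 1 - k) by omega, pow_add]
    exact Nat.mul_le_mul_left _ (not_lt.mp hsh)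

theorem rep [FiniteDimensional F V] {p q : ℕ} [hp : Fact p.Prime]
    [CharP F p] [hq : Fact q.Prime] (hpq : p ≠ q) (hQ : IsPGroup q Q)
    (hcl : ∀ a b c : Q, c * (a⁻¹ * b⁻¹ * a * b) = (a⁻¹ * b⁻¹ * a * b) * c)
    (ρ : Q →* End F V) (hnt : ∃ g, ρ g ≠ 1)
    (X : End F V) (σ : MulAut Q) (hXσ : ∀ g, X * ρ g = ρ (σ g) * X)
    (e : ℕ) (hX : X ^ p ^ (e + 1) = 1) (hσ : σ ^ p ^ (e + 1) = 1)
    (hgen : ∀ S : Subgroup Q, (∀ g, g⁻¹ * (σ ^ p ^ e) g ∈ S) → S = ⊤)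
    (r : ℕ) (hr : (X - 1) ^ r = 0) :
    p ^ (e + 1) ≤ r ∨ ((¬ ∀ a b : Q, a * b = b * a) ∧ ∃ n₀ m, 1 ≤ n₀ ∧ n₀ ≤ e + 1 ∧ 1 ≤ m ∧
      p ^ n₀ - 1 = q ^ m ∧ p ^ (e + 1 - n₀) * (p ^ n₀ - 1) ≤ r) := by
  classical
  let b := Module.finBasis F V
  let K := AlgebraicClosure F
  let Φ : End F V →+* End K (Fin (finrank F V) → K) :=
    (Matrix.toLinAlgEquiv' (R := K) (n := Fin (finrank F V))).toRingEquiv.toRingHom.comp
      ((algebraMap F K).mapMatrix.comp (LinearMap.toMatrixAlgEquiv b).toRingEquiv.toRingHom)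
  have hΦ : Function.Injective Φ :=
    (Matrix.toLinAlgEquiv' (R := K) (n := Fin (finrank F V))).injective.comp
      ((Matrix.map_injective (algebraMap F K).injective).comp
        (LinearMap.toMatrixAlgEquiv b).injective)
  obtain ⟨g, hg⟩ := hnt
  exact rep_closed hpq hQ hcl (Φ.toMonoidHom.comp ρ)
    ⟨g, fun h => hg (hΦ (h.trans (map_one Φ).symm))⟩ (Φ X) σ
    (fun g => by
      change Φ X * Φ (ρ g) = Φ (ρ (σ g)) * Φ X
      rw [← map_mul, ← map_mul, hXσ]) e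
    (by rw [← map_pow, hX, map_one]) hσ hgen r
    (by rw [← map_one Φ, ← map_sub, ← map_pow, hr, map_zero])

end Cfsg.Lib.HH
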